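import Cfsg.Agent.SM.Om.Lin
import Cfsg.Agent.H905.SLProper
import Cfsg.Agent.S2119
import Cfsg.Agent.S5850
import Cfsg.Agent.S5851

/-!
# SM (S3570), socle `PΩ⁻_{2m}(q)`: the case `n = 10`, `q = 2` (helper12)
-/

set_option autoImplicit false
set_option linter.unusedSectionVars false

namespace Cfsg.Agent.SM.Om

open Module QuadraticMap Cfsg Cfsg.Geo Cfsg.Agent.LieClassical.OrthCore Cfsg.Agent.LieClassical.OrthTrans
  Cfsg.Agent.H955 Cfsg.Agent.H884.El Cfsg.Agent.H954.TSing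
open Cfsg.Agent.H951 (fx cm Inv)
open Cfsg.Agent.H278.Cov (Red Ext)
open scoped MatrixGroups Matrix commutatorElement

namespace Ten

section gen

variable {n : ℕ} {F : Type} [Field F] [Fintype F]

theorem scalars_bot (hF : Fintype.card F = 2) : scalars (Fin n) F = ⊥ := by
  have : Subsingleton Fˣ := by
    classical
    rw [← Fintype.card_le_one_iff_subsingleton, Fintype.card_units, hF]
  rw [eq_bot_iff]
  rintro _ ⟨c, rfl⟩
  rw [Subsingleton.elim c 1, map_one]
  exact one_mem _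

/-- a residual group with an alternating core over the field with two elements -/
theorem emb (hF : Fintype.card F = 2) {H P : Subgroup (GL (Fin n) F)} (h : IsResidualCore H P) {c : ℕ} (hc : 7 ≤ c)
    (e : (P ⧸ (scalars (Fin n) F).subgroupOf P) ≃* alternatingGroup (Fin c)) :
    ∃ φ : H →* Equiv.Perm (Fin c), Function.Injective φ ∧ alternatingGroup (Fin c) ≤ φ.range := by
  have h0 := scalars_bot (n := n) hF
  have : (P.subgroupOf H).Normal := ⟨fun x hx g => h.normal g g.2 x hx⟩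
  let e' : P.subgroupOf H ≃* alternatingGroup (Fin c) := ((Subgroup.subgroupOfEquivOfLe h.le).trans
    ((QuotientGroup.quotientMulEquivOfEq (by rw [h0, Subgroup.bot_subgroupOf])).trans
      QuotientGroup.quotientBot).symm).trans e
  let E := MulEquiv.ofBijective _ (S2119.result c (by omega) (by omega))
  let ψ : H →* MulAut (alternatingGroup (Fin c)) := (MulAut.congr e').toMonoidHom.comp MulAut.conjNormal
  refine ⟨E.symm.toMonoidHom.comp ψ, E.symm.injective.comp ((MulAut.congr e').injective.comp ?_), fun a ha => ?_⟩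
  · rw [injective_iff_map_eq_one]
    intro g hg
    have h1 := h.centralizer_scalar g g.2 fun x hx => by
      have h2 : (g : GL (Fin n) F) * x * (g : GL (Fin n) F)⁻¹ = x := congrArg (fun z : P.subgroupOf H => (z.1 : GL (Fin n) F))
        (DFunLike.congr_fun hg (⟨⟨x, h.le hx⟩, hx⟩ : P.subgroupOf H))
      rw [h2, mul_inv_cancel]
      exact one_mem _
    rw [h0] at h1
    exact Subtype.ext h1
  · refine ⟨(e'.symm ⟨a, ha⟩ : P.subgroupOf H), E.symm_apply_eq.2 ?_⟩
    ext1 x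
    show e' (MulAut.conjNormal ((e'.symm ⟨a, ha⟩ : P.subgroupOf H) : H) (e'.symm x)) = MulAut.conjNormal a x
    have h1 : MulAut.conjNormal ((e'.symm ⟨a, ha⟩ : P.subgroupOf H) : H) (e'.symm x) =
        e'.symm ⟨a, ha⟩ * e'.symm x * (e'.symm ⟨a, ha⟩)⁻¹ := rfl
    rw [h1, ← map_inv, ← map_mul, ← map_mul, MulEquiv.apply_symm_apply]
    rfl

theorem index_map {H : Type*} [Group H] {c N : ℕ} (hN : NoIdx c N) {φ : H →* Equiv.Perm (Fin c)}
    (h1 : Function.Injective φ) (h2 : alternatingGroup (Fin c) ≤ φ.range) (U : Subgroup H) : U.index ≠ N := fun h => by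
  have h3 := Subgroup.index_map_of_injective U h1
  have h4 : φ.range.index ∣ 2 := by
    refine (Subgroup.index_dvd_of_le h2).trans ?_
    rw [alternatingGroup_eq_sign_ker, Subgroup.index_ker]
    exact (Subgroup.card_subgroup_dvd_card _).trans (by rw [Nat.card_eq_fintype_card, Fintype.card_units_int])
  rcases (Nat.dvd_prime Nat.prime_two).1 h4 with h5 | h5 <;> rw [h, h5] at h3
  · exact (hN _).1 (by rw [h3, mul_one])
  · exact (hN _).2 (by rw [h3, mul_comm])

variable {Q : QuadraticForm F (Fin n → F)} {m r : ℕ} {Y : Subgroup (GL (Fin n) F)}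

/-- a field of similarities is not normalised by an element of order `r_{n-2}` -/
theorem no_sim (h : Spc Q m) (hY : Y ≤ Og Q) (hr : PP (Nat.card F) (2 * m - 2) r) (hd : r ∣ Nat.card Y)
    {K : Subalgebra F (Matrix (Fin n) (Fin n) F)} (hK : IsFieldSubalgebra 2 K) (hYK : Y ≤ subalgebraNormalizer K)
    (hs : ∀ k ∈ K, ∃ c : F, ∀ v, Q (k *ᵥ v) = c * Q v) : False := by
  have h4 := h.four
  have hn := h.dim
  have : Nonempty (Fin n) := ⟨⟨0, by omega⟩⟩
  obtain ⟨g, hg, hiso, hgr, hg1⟩ := exists_elt (Q := Q) (hY.trans og_le) hr (by omega) hd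
  have hev : Even (2 * m - 2) := ⟨m - 1, by omega⟩
  obtain ⟨hcm, -⟩ := hiso.even_case h.nd (lin_ne_one hg1) hr hev (by rw [h.finrank_V]; omega)
  have hadd := hiso.finrank_add
  rw [h.finrank_V] at hadd
  have hfx : finrank F (fx (lin g)) = 2 := by omega
  have := Fact.mk hiso.prime
  obtain ⟨e, f, hef, h1⟩ := hyp_of_plus hfx (nondeg_fx h.nd hiso.iso hiso.ne0 hiso.pow) (by
    rw [isPlus_fx_iff hiso.two_lt h.nd (by rw [h.finrank_V]; exact even_two_mul m) hiso.iso hiso.ne0 hiso.pow (ord_eq hr)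
      hev (A := 1) (by rw [hcm, mul_one])]
    exact ⟨fun h5 => absurd h5 h.minus, fun h5 => absurd h5 (by decide)⟩)
  have hc := comm_field Nat.prime_two hK (hYK hg) hr.prime hiso.two_lt.ne' hgr
  have he : e ∈ fx (lin g) := h1 ▸ Submodule.subset_span (by simp)
  have he0 : e ≠ 0 := fun h0 => by
    have := hef.pair
    rw [h0, polar_zero_left] at this
    exact zero_ne_one this
  have h2 : kw K (F ∙ e) = fx (lin g) := Submodule.eq_of_le_of_finrank_eq (fun z hz => by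
    obtain ⟨y, hy, rfl⟩ := mem_kw_pt.1 hz
    have h3 : (g : Matrix (Fin n) (Fin n) F) *ᵥ e = e := H951.mem_fx.1 he
    refine H951.mem_fx.2 ?_
    show (g : Matrix (Fin n) (Fin n) F) *ᵥ (y *ᵥ e) = y *ᵥ e
    rw [Matrix.mulVec_mulVec, hc y hy, ← Matrix.mulVec_mulVec, h3]) (by rw [finrank_kw_pt hK he0, hfx])
  obtain ⟨y, hy, h3⟩ := mem_kw_pt.1 (h2.ge (h1.ge (Submodule.add_mem _ (Submodule.subset_span (by simp))
    (Submodule.subset_span (by simp)) : e + f ∈ Submodule.span F {e, f})))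
  obtain ⟨c, h5⟩ := hs y hy
  have h6 := Q_one hef
  rw [h3, h5, hef.left, mul_zero] at h6
  exact zero_ne_one h6

end gen

variable {F : Type} [Field F] [Fintype F] {Q : QuadraticForm F (Fin 10 → F)} {Z : Subgroup (GL (Fin 10) F)}

theorem list (h : Spc Q 5) (hF : Fintype.card F = 2) (hZ : Z ≤ Og Q) (hn : ¬ Og Q ≤ Z) {r d : ℕ}
    (hr : PP (Nat.card F) d r) (hd : 5 < d) (hrZ : r ∣ Nat.card Z) : Red Z ∨
    (∃ K, IsFieldSubalgebra 2 K ∧ Z ≤ subalgebraNormalizer K ∧ ∀ k ∈ K, ∃ c : F, ∀ v, Q (k *ᵥ v) = c * Q v) ∨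
    ∃ H, Z ≤ H ∧ H ≤ Og Q ∧ ∃ φ : H →* Equiv.Perm (Fin 12), Function.Injective φ ∧ alternatingGroup (Fin 12) ≤ φ.range := by
  obtain ⟨H, hH, hle⟩ := H905.exists_isMaximalIn_of_lt (lt_of_le_not_ge hZ hn)
  have red : ∀ W : Submodule F (Fin 10 → F), 0 < finrank F W → finrank F W < 10 → H = St W ⊓ Og Q → Red Z :=
    fun W h1 h2 e => ⟨W, fun h0 => by rw [h0, finrank_bot] at h1; omega,
      fun h0 => by rw [h0, finrank_top, finrank_V'] at h2; omega, hle.trans (e.le.trans inf_le_left)⟩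
  rcases S5850.result (⇑Q) h.nd' h.minus' H hH with ⟨W, h1, h2, e⟩ | ⟨h1, -⟩ | ⟨W, h1, -, -, e⟩ | ⟨h1, -⟩ | ⟨W, h1, -, e⟩ |
    ⟨-, v, h1, e⟩ | ⟨⟨p, -, h1, h2⟩, -⟩ | ⟨-, D, h1, e⟩ | ⟨h1, -⟩ | ⟨h1, -⟩ | ⟨h1, -⟩ | ⟨K, h1, -, -, h2, e⟩ |
    ⟨F₀, s, -, -, h1, h2, h3, -⟩ | h1
  · refine Or.inl ⟨W, h1, fun h0 => h1 (eq_bot_iff.2 fun w _ => h.nd w fun y => ?_), hle.trans (e.le.trans inf_le_left)⟩
    rw [polar, h2 _ (h0.ge trivial), h2 _ (h0.ge trivial), h2 _ (h0.ge trivial), sub_zero, sub_zero]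
  · rw [hF] at h1; exact absurd h1 (by decide)
  · exact Or.inl (red W (by omega) (by omega) e)
  · omega
  · exact Or.inl (red W (by omega) (by omega) e)
  · have h2 := finrank_span_singleton (K := F) (v := v) fun h0 => h1 (by rw [h0, QuadraticMap.map_zero])
    exact Or.inl (red _ (by omega) (by omega) e)
  · omega
  · have h2 := decomp_le h1.decomp.decomp (hle.trans (e.le.trans inf_le_left)) hr (by omega) hrZ
    have := hr.lt (by omega)
    omega
  · omega
  · omega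
  · rw [hF] at h1; exact absurd h1 (by decide)
  · exact Or.inr (Or.inl ⟨K, h1, hle.trans (e.le.trans inf_le_left), h2⟩)
  · rw [hF] at h3
    exact absurd (Nat.Prime.eq_one_of_pow (h3 ▸ Nat.prime_two)) h1.one_lt.ne'
  · obtain ⟨P, h2, h3⟩ := S5851.result (⇑Q) h.nd' h.minus' H hH h1
    rcases h3 with ⟨-, -, h3, -⟩ | ⟨-, h3⟩ | ⟨-, -, h3, -⟩ | ⟨⟨e⟩, -⟩ | ⟨-, h3⟩
    · exact absurd hF h3
    · omega
    · exact absurd hF h3
    · exact Or.inr (Or.inr ⟨H, hle, hH.1.le, emb hF h2 (by norm_num) e⟩)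
    · omega

theorem not17 {H : Subgroup (GL (Fin 10) F)} (hZ : Z ≤ H) {φ : H →* Equiv.Perm (Fin 12)} (h : Function.Injective φ) :
    ¬ 17 ∣ Nat.card Z := fun h1 => by
  have h2 := (h1.trans (Subgroup.card_dvd_of_le hZ)).trans (Subgroup.card_dvd_of_injective φ h)
  rw [Nat.card_perm, Nat.card_eq_fintype_card, Fintype.card_fin] at h2
  exact absurd h2 (by decide)

end Ten

open Ten in
/-- **`n = 10`, `q = 2`** -/
theorem box10_of (hA : BoxAlt) (hI : BoxIdx) : Box10 := by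
  intro F _ _ Q X Y h hF h11
  have hq : Nat.card F = 2 := by rw [Nat.card_eq_fintype_card, hF]
  have p11 : PP (Nat.card F) 10 11 := hq ▸ ⟨by norm_num, by
    rw [orderOf_eq_iff (by norm_num)]
    exact ⟨by decide, by decide⟩⟩
  have p17 : PP (Nat.card F) 8 17 := hq ▸ ⟨by norm_num, by
    rw [orderOf_eq_iff (by norm_num)]
    exact ⟨by decide, by decide⟩⟩
  have h1 : 17 ∣ Nat.card (Og Q) := by
    obtain ⟨z, -, hz⟩ := h.ord
    rw [hF, show Nat.gcd 4 (2 ^ 5 + 1) = 1 by norm_num, one_mul] at hz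
    exact hz ▸ Dvd.dvd.mul_left (by decide) z
  have h2 := not_red h.toSpc h.leX p11 h11
  have h3 := (list h.toSpc hF h.leX h.nX p11 (by norm_num) h11).resolve_left h2
  have h4 : 17 ∣ Nat.card Y := (h.dvd (by norm_num) h1).resolve_left fun h4 => by
    rcases h3 with ⟨K, h5, h6, h7⟩ | ⟨H, h5, -, φ, h6, -⟩
    · exact no_sim h.toSpc h.leX p17 h4 h5 h6 h7
    · exact not17 h5 h6 h4
  refine ⟨sm_of_red h.toSpc h.leY p17 h4 ?_, h3.imp ?_ ?_⟩
  · rcases list h.toSpc hF h.leY h.nY p17 (by norm_num) h4 with h5 | ⟨K, h5, h6, h7⟩ | ⟨H, h5, -, φ, h6, -⟩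
    · exact h5
    · exact (no_sim h.toSpc h.leY p17 h4 h5 h6 h7).elim
    · exact (not17 h5 h6 h4).elim
  · rintro ⟨K, h5, h6, -⟩
    exact ⟨11, 2, K, p11, h11, Nat.prime_two, h5, h6⟩
  · rintro ⟨H, h5, h6, φ, h7, h8⟩
    refine ⟨fun v hv hY => index_map hA.1 h7 h8 ((St (F ∙ v)).subgroupOf H) ?_,
      ((alternatingGroup (Fin 12)).comap φ).map H.subtype, ?_, (Subgroup.map_subtype_le _).trans h6, ⟨?_⟩⟩
    · have h9 := (hI F 10 5 Q v h.toSpc fun h0 => hv (by rw [h0, QuadraticMap.map_zero])).2 hv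
      rw [hF, show Nat.gcd 2 (2 - 1) = 1 by norm_num, mul_one] at h9
      exact (relIndex_of_fac h6 (fun g hg => let ⟨x, hx, h⟩ := h.fac g hg; ⟨x, h5 hx, h⟩) hY).trans h9
    · refine Subgroup.commutator_le.2 fun a ha b hb => ⟨⁅(⟨a, h5 ha⟩ : H), (⟨b, h5 hb⟩ : H)⁆, ?_, rfl⟩
      show φ _ ∈ alternatingGroup (Fin 12)
      rw [Equiv.Perm.mem_alternatingGroup, map_commutatorElement, map_commutatorElement, commutatorElement_eq_one_iff_mul_comm,
        mul_comm]
    · exact (Subgroup.equivMapOfInjective _ _ H.subtype_injective).symm.trans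
        ((Subgroup.equivMapOfInjective _ _ h7).trans (MulEquiv.subgroupCongr (Subgroup.map_comap_eq_self h8)))

end Cfsg.Agent.SM.Om
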